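import Cfsg.Agent.SL2.Elements
import Cfsg.Agent.SLn.Card
import Cfsg.Prelude.Def_ParabolicCharacters
set_option autoImplicit false

/-!
Unipotent elements, Sylow subgroups in the defining characteristic and Borel subgroups of `GL₂`.
-/

namespace CfsgLib.SL2.GLTwo

open Matrix

variable {F : Type*} [Field F]

/-- The element `(1 c; 0 1)` of `GL₂`, as a homomorphism. -/
noncomputable def uHom : Multiplicative F →* GL (Fin 2) F :=
  SpecialLinearGroup.toGL.comp upperHom

theorem uHom_coe (c : Multiplicative F) :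
    ((uHom c : GL (Fin 2) F) : Matrix (Fin 2) (Fin 2) F) = !![1, c.toAdd; 0, 1] := rfl

theorem uHom_injective : Function.Injective (uHom (F := F)) := fun s t h => by
  have := congrArg (fun g : GL (Fin 2) F => (g : Matrix (Fin 2) (Fin 2) F) 0 1) h
  simpa [uHom_coe] using this

theorem mem_range_uHom {g : GL (Fin 2) F} : g ∈ (uHom (F := F)).range ↔
    g.1 0 0 = 1 ∧ g.1 1 1 = 1 ∧ g.1 1 0 = 0 := by
  constructor
  · rintro ⟨c, rfl⟩; simp [uHom_coe]
  · rintro ⟨h0, h1, h2⟩
    refine ⟨Multiplicative.ofAdd (g.1 0 1), Units.ext ?_⟩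
    rw [uHom_coe]
    ext i j
    fin_cases i <;> fin_cases j <;> simp_all

theorem mem_borel {g : GL (Fin 2) F} : g ∈ Cfsg.upperTriangularGL 2 F ↔ g.1 1 0 = 0 := by
  constructor
  · intro h; exact h (show (0 : Fin 2) < 1 by decide)
  · intro h i j hij
    fin_cases i <;> fin_cases j <;> simp_all

/-- The invertible upper triangular matrix with the given entries. -/
def mkUp (a d : Fˣ) (b : F) : GL (Fin 2) F :=
  GeneralLinearGroup.mkOfDetNeZero !![(a : F), b; 0, (d : F)] (by simp [Matrix.det_fin_two])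

@[simp] theorem mkUp_coe (a d : Fˣ) (b : F) :
    ((mkUp a d b : GL (Fin 2) F) : Matrix (Fin 2) (Fin 2) F) = !![(a : F), b; 0, (d : F)] := rfl

theorem borel_det {g : GL (Fin 2) F} (h : g.1 1 0 = 0) : g.1 0 0 ≠ 0 ∧ g.1 1 1 ≠ 0 := by
  have := g.det_ne_zero
  rw [Matrix.det_fin_two, h, mul_zero, sub_zero] at this
  exact mul_ne_zero_iff.mp this

theorem card_borel [Fintype F] :
    Nat.card (Cfsg.upperTriangularGL 2 F) = Fintype.card F * (Fintype.card F - 1) ^ 2 := by
  classical
  rw [Nat.card_congr (β := F × Fˣ × Fˣ)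
    { toFun := fun g => (g.1.1 0 1, Units.mk0 _ (borel_det (mem_borel.mp g.2)).1, Units.mk0 _ (borel_det (mem_borel.mp g.2)).2)
      invFun := fun x => ⟨mkUp x.2.1 x.2.2 x.1, mem_borel.mpr rfl⟩
      left_inv := fun g => by
        refine Subtype.ext (Units.ext ?_)
        ext i j
        have := mem_borel.mp g.2
        fin_cases i <;> fin_cases j <;> simp_all
      right_inv := fun x => by simp }]
  simp [Nat.card_prod, Nat.card_units, Nat.card_eq_fintype_card, Fintype.card_units, sq]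

theorem normalizer_uHom [Finite F] :
    Subgroup.normalizer ((uHom (F := F)).range : Set (GL (Fin 2) F)) = Cfsg.upperTriangularGL 2 F := by
  refine le_antisymm (fun g hg => ?_) (fun g hg => ?_)
  · rw [mem_borel]
    obtain ⟨c, hc⟩ := (Subgroup.mem_normalizer_iff.mp hg (uHom (Multiplicative.ofAdd 1))).mp ⟨_, rfl⟩
    rw [eq_mul_inv_iff_mul_eq] at hc
    have h := congrArg (fun x : GL (Fin 2) F => x.1 1 1) hc
    simp [uHom_coe, Matrix.mul_apply, Fin.sum_univ_two] at h
    exact h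
  · rw [mem_borel] at hg
    obtain ⟨h0, h1⟩ := borel_det hg
    refine Subgroup.mem_normalizer_fintype ?_
    rintro _ ⟨c, rfl⟩
    refine ⟨Multiplicative.ofAdd (g.1 0 0 * c.toAdd / g.1 1 1), ?_⟩
    rw [eq_mul_inv_iff_mul_eq]
    refine Units.ext ?_
    ext i j
    fin_cases i <;> fin_cases j <;> simp [uHom_coe, Matrix.mul_apply, Fin.sum_univ_two, hg] <;> field_simp <;> ring

theorem centralizer_uHom {c : Multiplicative F} (hc : c ≠ 1) {g : GL (Fin 2) F} :
    g ∈ Subgroup.centralizer ({uHom c} : Set (GL (Fin 2) F)) ↔ g.1 1 0 = 0 ∧ g.1 0 0 = g.1 1 1 := by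
  have hc' : c.toAdd ≠ 0 := fun h => hc (by simpa using h)
  rw [Subgroup.mem_centralizer_singleton_iff]
  constructor
  · intro h
    have h11 := congrArg (fun x : GL (Fin 2) F => x.1 1 1) h
    have h01 := congrArg (fun x : GL (Fin 2) F => x.1 0 1) h
    simp [uHom_coe, Matrix.mul_apply, Fin.sum_univ_two] at h11 h01
    refine ⟨h11.resolve_right hc', mul_right_cancel₀ hc' ?_⟩
    linear_combination h01
  · rintro ⟨h10, h⟩
    refine Units.ext ?_
    ext i j
    fin_cases i <;> fin_cases j <;> simp [uHom_coe, Matrix.mul_apply, Fin.sum_univ_two, h10, h] <;> ring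

theorem card_centralizer_uHom [Fintype F] {c : Multiplicative F} (hc : c ≠ 1) :
    Nat.card (Subgroup.centralizer ({uHom c} : Set (GL (Fin 2) F))) = Fintype.card F * (Fintype.card F - 1) := by
  classical
  rw [Nat.card_congr (β := F × Fˣ)
    { toFun := fun g => (g.1.1 0 1, Units.mk0 _ (borel_det ((centralizer_uHom hc).mp g.2).1).1)
      invFun := fun x => ⟨mkUp x.2 x.2 x.1, (centralizer_uHom hc).mpr ⟨rfl, rfl⟩⟩
      left_inv := fun g => by
        refine Subtype.ext (Units.ext ?_)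
        ext i j
        obtain ⟨ha, hb⟩ := (centralizer_uHom hc).mp g.2
        fin_cases i <;> fin_cases j <;> simp_all
      right_inv := fun x => by simp }]
  simp [Nat.card_prod, Nat.card_eq_fintype_card, Fintype.card_units]

variable [Fintype F] (p : ℕ) [Fact p.Prime] [CharP F p]

theorem exists_sylow_uHom : ∃ P : Sylow p (GL (Fin 2) F), (P : Subgroup (GL (Fin 2) F)) = (uHom (F := F)).range := by
  have hcard : Nat.card (uHom (F := F)).range = Fintype.card F := by
    rw [← Nat.card_congr (MonoidHom.ofInjective (uHom_injective (F := F))).toEquiv,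
      Nat.card_congr Multiplicative.toAdd, Nat.card_eq_fintype_card]
  obtain ⟨k, -, hk⟩ := FiniteField.card F p
  obtain ⟨P, hP⟩ := (IsPGroup.of_card (p := p) (n := k) (hcard.trans hk)).exists_le_sylow
  refine ⟨P, (Subgroup.eq_of_le_of_card_ge hP ?_).symm⟩
  rw [hcard, CfsgLib.SLn.card_sylow_GL F p 2 P]
  simp

theorem exists_conj_uHom (P : Sylow p (GL (Fin 2) F)) :
    ∃ g : GL (Fin 2) F, (P : Subgroup (GL (Fin 2) F)) = (uHom (F := F)).range.map (MulAut.conj g).toMonoidHom := by
  obtain ⟨P0, hP0⟩ := exists_sylow_uHom (F := F) p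
  obtain ⟨g, rfl⟩ := MulAction.exists_smul_eq (GL (Fin 2) F) P0 P
  exact ⟨g, by rw [← hP0]; rfl⟩

theorem card_centralizer_mem (P : Sylow p (GL (Fin 2) F)) {a : GL (Fin 2) F} (ha : a ∈ P) (ha1 : a ≠ 1) :
    Nat.card (Subgroup.centralizer ({a} : Set (GL (Fin 2) F))) = Fintype.card F * (Fintype.card F - 1) := by
  obtain ⟨g, hg⟩ := exists_conj_uHom p P
  have ha' : a ∈ (P : Subgroup (GL (Fin 2) F)) := ha
  rw [hg] at ha'
  obtain ⟨_, ⟨c, rfl⟩, rfl⟩ := ha'
  have hc : c ≠ 1 := by rintro rfl; simp at ha1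
  rw [← card_centralizer_uHom hc]
  refine (Nat.card_congr ((MulAut.conj g).toEquiv.subtypeEquiv fun x => ?_)).symm
  simp only [Subgroup.mem_centralizer_singleton_iff]
  constructor
  · intro h
    show MulAut.conj g x * MulAut.conj g (uHom c) = MulAut.conj g (uHom c) * MulAut.conj g x
    rw [← map_mul, ← map_mul, h]
  · intro h
    apply (MulAut.conj g).injective
    rw [map_mul, map_mul]
    exact h

/-- Distinct Sylow subgroups meet trivially. -/
theorem sylow_eq_of_mem {P Q : Sylow p (GL (Fin 2) F)} {x : GL (Fin 2) F} (hP : x ∈ P) (hQ : x ∈ Q)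
    (hx : x ≠ 1) : P = Q := by
  classical
  obtain ⟨P0, hP0⟩ := exists_sylow_uHom (F := F) p
  have key : ∀ R : Sylow p (GL (Fin 2) F), ∀ c : Multiplicative F, c ≠ 1 → uHom c ∈ R → R = P0 := by
    intro R c hc hR
    have habel : ∀ a ∈ R, ∀ b ∈ R, a * b = b * a := by
      obtain ⟨g, hg⟩ := exists_conj_uHom p R
      intro a ha b hb
      change a ∈ (R : Subgroup (GL (Fin 2) F)) at ha
      change b ∈ (R : Subgroup (GL (Fin 2) F)) at hb
      rw [hg] at ha hb
      obtain ⟨_, ⟨s, rfl⟩, rfl⟩ := ha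
      obtain ⟨_, ⟨t, rfl⟩, rfl⟩ := hb
      rw [← map_mul, ← map_mul, ← map_mul, ← map_mul, mul_comm]
    refine Sylow.ext (R.is_maximal' P0.isPGroup' fun y hy => ?_).symm
    rw [hP0, mem_range_uHom]
    obtain ⟨h10, heq⟩ := (centralizer_uHom hc).mp (Subgroup.mem_centralizer_singleton_iff.mpr (habel y hy _ hR))
    obtain ⟨k, hk⟩ := R.isPGroup' ⟨y, hy⟩
    have hk' : y ^ (p ^ k) = 1 := congrArg Subtype.val hk
    have hpow : ∀ m : ℕ, (y ^ m).1 1 0 = 0 ∧ (y ^ m).1 0 0 = y.1 0 0 ^ m := by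
      intro m
      induction m with
      | zero => simp
      | succ m ih =>
        rw [pow_succ, pow_succ]
        simp only [Matrix.GeneralLinearGroup.coe_mul, Units.val_mul, Matrix.mul_apply, Fin.sum_univ_two]
        simp only [Units.val_pow_eq_pow_val] at ih ⊢
        rw [ih.1, ih.2, h10]
        simp
    have h1 := (hpow (p ^ k)).2
    rw [hk'] at h1
    have h2 : (y.1 0 0 - 1) ^ (p ^ k) = 0 := by
      rw [sub_pow_char_pow, ← h1]; simp
    have h00 := sub_eq_zero.mp (eq_zero_of_pow_eq_zero h2)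
    exact ⟨h00, heq ▸ h00, h10⟩
  obtain ⟨g, hg⟩ := exists_conj_uHom p P
  have hP' : x ∈ (P : Subgroup (GL (Fin 2) F)) := hP
  rw [hg] at hP'
  obtain ⟨_, ⟨c, rfl⟩, rfl⟩ := hP'
  have hc : c ≠ 1 := by rintro rfl; simp at hx
  have e : ∀ R : Sylow p (GL (Fin 2) F), (MulAut.conj g) (uHom c) ∈ R → R = g • P0 := by
    intro R hR
    have : g⁻¹ • R = P0 := key _ c hc (by
      show uHom c ∈ ((g⁻¹ • R : Sylow p (GL (Fin 2) F)) : Subgroup (GL (Fin 2) F))
      rw [Sylow.coe_subgroup_smul]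
      refine ⟨_, hR, ?_⟩
      simp only [MulDistribMulAction.toMonoidEnd_apply, MulDistribMulAction.toMonoidHom_apply, MulAut.smul_def, MulAut.conj_apply]
      group)
    rw [← this, smul_inv_smul]
  exact (e P hP).trans (e Q hQ).symm

theorem isConj_of_order_p {g h : GL (Fin 2) F} (hg : orderOf g = p) (hh : orderOf h = p) : IsConj g h := by
  have key : ∀ g : GL (Fin 2) F, orderOf g = p → IsConj g (uHom (Multiplicative.ofAdd 1)) := by
    intro g hg
    obtain ⟨P, hP⟩ := (IsPGroup.of_card (p := p) (G := Subgroup.zpowers g) (n := 1)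
      (by rw [Nat.card_zpowers, hg, pow_one])).exists_le_sylow
    have hgP : g ∈ (P : Subgroup (GL (Fin 2) F)) := hP (Subgroup.mem_zpowers g)
    obtain ⟨y, hy⟩ := exists_conj_uHom p P
    rw [hy] at hgP
    obtain ⟨_, ⟨c, rfl⟩, rfl⟩ := hgP
    have hc : c.toAdd ≠ 0 := by
      intro h0
      have : c = 1 := by simpa using h0
      subst this
      rw [map_one, map_one, orderOf_one] at hg
      exact (Fact.out : p.Prime).ne_one hg.symm
    refine isConj_iff.mpr ⟨GeneralLinearGroup.mkOfDetNeZero !![1, 0; 0, c.toAdd]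
      (by simp [Matrix.det_fin_two, hc]) * y⁻¹, ?_⟩
    rw [mul_inv_eq_iff_eq_mul]
    show _ * y⁻¹ * (y * uHom c * y⁻¹) = _
    rw [show ∀ d : GL (Fin 2) F, d * y⁻¹ * (y * uHom c * y⁻¹) = d * uHom c * y⁻¹ from fun d => by group, ← mul_assoc]
    congr 1
    refine Units.ext ?_
    ext i j
    fin_cases i <;> fin_cases j <;> simp [uHom_coe, Matrix.mul_apply, Fin.sum_univ_two]
  exact (key g hg).trans (key h hh).symm

end CfsgLib.SL2.GLTwo
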