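import Cfsg.Agent.SL2.Centralizer
import Cfsg.Agent.SLTwoSq.Basic
import Cfsg.Agent.RankOneP.Basic
import Cfsg.Agent.CoprimeAction.Invariant
import Cfsg.Agent.Hall.AutQEight
import Mathlib

/-! A `p`-element of `SL₂(q)` acting non-trivially on a `p'`-subgroup (`p` the odd characteristic). -/

set_option autoImplicit false

namespace CfsgLib.SL2PElement

open Matrix CfsgLib.SL2

variable {F : Type*} [Field F] [Fintype F] {p : ℕ} [hp' : Fact p.Prime] [CharP F p]

theorem two_ne_zero' (hp : p ≠ 2) : (2 : F) ≠ 0 := by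
  intro h
  have h2 : ((2 : ℕ) : F) = 0 := by exact_mod_cast h
  exact hp ((Nat.prime_dvd_prime_iff_eq hp'.out Nat.prime_two).1 ((CharP.cast_eq_zero_iff F p 2).1 h2))

omit [Fintype F] hp' in
theorem upperU_pow (t : F) : ∀ k : ℕ, upperU t ^ k = upperU ((k : F) * t)
  | 0 => by simp [upperU_zero]
  | k + 1 => by rw [pow_succ, upperU_pow t k, ← upperU_add, Nat.cast_succ, add_mul, one_mul]

omit [Fintype F] hp' in
theorem upperU_pow_char (t : F) : upperU t ^ p = 1 := by
  rw [upperU_pow, CharP.cast_eq_zero, zero_mul, upperU_zero]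

omit [Fintype F] hp' in
theorem pow_char_of_tr_two {g : SpecialLinearGroup (Fin 2) F} (h : tr g = 2) : g ^ p = 1 := by
  obtain ⟨s, hs⟩ := exists_isConj_upperU h
  obtain ⟨c, hc⟩ := isConj_iff.1 hs
  rw [← hc, conj_pow, upperU_pow_char, mul_one, mul_inv_cancel]

theorem eq_one_or_neg_one_of_sq (hp : p ≠ 2) {x : SpecialLinearGroup (Fin 2) F} (h : x * x = 1) : x = 1 ∨ x = -1 := by
  rcases CfsgLib.SLTwoSq.sq_eq_one (two_ne_zero' hp) x h with h | h
  · exact Or.inl h
  · refine Or.inr (h.trans ?_)
    apply ext2 <;> simp [CfsgLib.SLTwoSq.negOne]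

theorem eq_one_of_pow {x : SpecialLinearGroup (Fin 2) F} {m : ℕ} (hx : x ^ m = 1) (hm : m.Coprime p) (hxp : x ^ p = 1) : x = 1 := by
  have := Nat.dvd_gcd (orderOf_dvd_of_pow_eq_one hx) (orderOf_dvd_of_pow_eq_one hxp)
  rwa [hm, Nat.dvd_one, orderOf_eq_one_iff] at this

/-- A non-central element of order prime to `p` has trace different from `±2`. -/
theorem not_center_and_tr (hp : p ≠ 2) {g : SpecialLinearGroup (Fin 2) F} {m : ℕ} (hg : g ^ m = 1) (hm : m.Coprime p)
    (h1 : g ≠ 1) (h2 : g ≠ -1) : g ∉ Subgroup.center (SpecialLinearGroup (Fin 2) F) ∧ tr g ^ 2 ≠ 4 := by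
  refine ⟨fun h => ?_, fun h => ?_⟩
  · rcases (mem_center_iff g).1 h with h | h
    · exact h1 h
    · exact h2 h
  · have hfac : (tr g - 2) * (tr g + 2) = 0 := by linear_combination h
    rcases mul_eq_zero.1 hfac with h | h
    · exact h1 (eq_one_of_pow hg hm (pow_char_of_tr_two (sub_eq_zero.1 h)))
    · have hneg : (-g) ^ p = 1 := pow_char_of_tr_two (by rw [tr_neg]; linear_combination -h)
      have hgg : (g * g) ^ p = 1 := by
        rw [← neg_mul_neg g g, (Commute.refl (-g)).mul_pow, hneg, one_mul]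
      have hgm : (g * g) ^ m = 1 := by rw [(Commute.refl g).mul_pow, hg, one_mul]
      rcases eq_one_or_neg_one_of_sq hp (eq_one_of_pow hgm hm hgg) with h | h
      · exact h1 h
      · exact h2 h

omit [Fintype F] in
/-- An element commuting with a non-central semisimple `g` and of the same trace is `g` or `g⁻¹`. -/
theorem eq_or_eq_inv {g h : SpecialLinearGroup (Fin 2) F} (hg : g ∉ Subgroup.center (SpecialLinearGroup (Fin 2) F)) (ht : tr g ^ 2 ≠ 4)
    (hc : h * g = g * h) (he : tr h = tr g) (h2 : (2 : F) ≠ 0) : h = g ∨ h = g⁻¹ := by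
  obtain ⟨⟨x, y⟩, hxy⟩ := exists_linComb hg hc
  have e00 := congrFun (congrFun hxy 0) 0
  have e01 := congrFun (congrFun hxy 0) 1
  have e10 := congrFun (congrFun hxy 1) 0
  have e11 := congrFun (congrFun hxy 1) 1
  simp [linComb] at e00 e01 e10 e11
  have hd := det_eq h
  have hdg := det_eq g
  rw [tr, tr, e00, e11] at he
  rw [e00, e01, e10, e11] at hd
  have hy : (1 - y) * ((1 + y) * (tr g ^ 2 - 4)) = 0 := by
    rw [tr]
    have hx : 2 * x = (g.1 0 0 + g.1 1 1) * (1 - y) := by linear_combination he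
    linear_combination 4 * hd - (4 * y ^ 2) * hdg - (2 * x + (g.1 0 0 + g.1 1 1) * (1 + y)) * hx
  rcases mul_eq_zero.1 hy with h1 | h1
  · have hy1 : y = 1 := by linear_combination -h1
    subst hy1
    have hx : x = 0 := by
      have : 2 * x = 0 := by linear_combination he
      exact (mul_eq_zero.1 this).resolve_left h2
    subst hx
    left
    apply ext2 <;> simp [e00, e01, e10, e11]
  · have hy1 : y = -1 := by
      have := (mul_eq_zero.1 h1).resolve_right (sub_ne_zero.2 ht)
      linear_combination this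
    subst hy1
    have hx : x = g.1 0 0 + g.1 1 1 := by
      have : 2 * (x - (g.1 0 0 + g.1 1 1)) = 0 := by linear_combination he
      exact sub_eq_zero.1 ((mul_eq_zero.1 this).resolve_left h2)
    subst hx
    right
    apply ext2 <;> simp [e00, e01, e10, e11, inv00, inv01, inv10, inv11]

omit [Fintype F] in
theorem tr_eq_two {x : SpecialLinearGroup (Fin 2) F} (hx : x ^ p = 1) : tr x = 2 := by
  have h1 : (x.1 - 1) ^ p = 0 := by
    rw [sub_pow_char_of_commute p (Commute.one_right x.1), one_pow]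
    have h3 : x.1 ^ p = 1 := (Matrix.SpecialLinearGroup.coe_pow x p).symm.trans (congrArg Subtype.val hx)
    simp [h3]
  have h2 : (x.1 - 1).det = 0 := by
    have := congrArg Matrix.det h1
    rw [Matrix.det_pow, Matrix.det_zero] at this
    exact eq_zero_of_pow_eq_zero this
  rw [Matrix.det_fin_two] at h2
  simp at h2
  have hd := det_eq x
  rw [tr]
  linear_combination -h2 + hd

theorem eq_of_commute (hp : p ≠ 2) {a : SpecialLinearGroup (Fin 2) F} (ha : a ^ p = 1) (ha1 : a ≠ 1) {g : SpecialLinearGroup (Fin 2) F} {m : ℕ} (hg : g ^ m = 1) (hm : m.Coprime p) (hc : a * g = g * a) :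
    g = 1 ∨ g = -1 := by
  by_contra hne
  rw [not_or] at hne
  obtain ⟨hgc, ht⟩ := not_center_and_tr hp hg hm hne.1 hne.2
  -- `a` lies in the centraliser of `g`, and has trace `2`
  obtain ⟨⟨x, y⟩, hxy⟩ := exists_linComb hgc hc
  have haC : a ∉ Subgroup.center (SpecialLinearGroup (Fin 2) F) := by
    intro hcen
    rcases (mem_center_iff a).1 hcen with h | h
    · exact ha1 h
    · rw [h, (hp'.out.odd_of_ne_two hp).neg_one_pow] at ha
      exact ha1 (h.trans ha)
  have hga : g * a = a * g := hc.symm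
  obtain ⟨⟨x', y'⟩, hxy'⟩ := exists_linComb haC hga
  have haT : tr a = 2 := tr_eq_two ha
  have e00 := congrFun (congrFun hxy' 0) 0
  have e11 := congrFun (congrFun hxy' 1) 1
  have e01 := congrFun (congrFun hxy' 0) 1
  have e10 := congrFun (congrFun hxy' 1) 0
  simp [linComb] at e00 e01 e10 e11
  apply ht
  have hd := det_eq g
  have hda := det_eq a
  rw [e00, e01, e10, e11] at hd
  rw [tr, e00, e11]
  rw [tr] at haT
  linear_combination 4 * hd - 4 * y' ^ 2 * hda + y' ^ 2 * (a.1 0 0 + a.1 1 1 + 2) * haT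

/-- Key: a `p'`-element commuting with its conjugate under `a` is `±1`. -/
theorem eq_of_commute_conj (hp : p ≠ 2) {a : SpecialLinearGroup (Fin 2) F} (ha : a ^ p = 1) (ha1 : a ≠ 1) {g : SpecialLinearGroup (Fin 2) F} {m : ℕ} (hg : g ^ m = 1) (hm : m.Coprime p)
    (hc : a * g * a⁻¹ * g = g * (a * g * a⁻¹)) : g = 1 ∨ g = -1 := by
  by_contra hne
  have hne' := not_or.1 hne
  obtain ⟨hgc, ht⟩ := not_center_and_tr hp hg hm hne'.1 hne'.2
  apply hne
  refine eq_of_commute hp ha ha1 hg hm ?_
  rw [← mul_inv_eq_iff_eq_mul]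
  rcases eq_or_eq_inv hgc ht hc (tr_eq_of_isConj (isConj_iff.2 ⟨a, rfl⟩).symm) (two_ne_zero' hp) with h | h
  · exact h
  · exfalso
    obtain ⟨k, hk⟩ := hp'.out.odd_of_ne_two hp
    have hit : ∀ i : ℕ, (a * a) ^ i * g * ((a * a) ^ i)⁻¹ = g := by
      intro i
      induction i with
      | zero => simp
      | succ i ih =>
        calc (a * a) ^ (i + 1) * g * ((a * a) ^ (i + 1))⁻¹
            = (a * a) ^ i * (a * (a * g * a⁻¹) * a⁻¹) * ((a * a) ^ i)⁻¹ := by rw [pow_succ]; group
          _ = (a * a) ^ i * (a * g * a⁻¹)⁻¹ * ((a * a) ^ i)⁻¹ := by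
              conv_lhs => rw [h]
              group
          _ = g := by rw [h, inv_inv, ih]
    have hak : (a * a) ^ (k + 1) = a := by
      rw [← pow_two, ← pow_mul, show 2 * (k + 1) = p + 1 by omega, pow_succ, ha, one_mul]
    have := hit (k + 1)
    rw [hak, h] at this
    -- an element inverse to itself is `±1`
    have hgg : g * g = 1 := by
      conv_lhs => arg 1; rw [← this]
      rw [inv_mul_cancel]
    exact hne (eq_one_or_neg_one_of_sq hp hgg)

omit [CharP F p] hp' [Fintype F] in
theorem pow_card_eq_one {R : Subgroup (SpecialLinearGroup (Fin 2) F)} {g : SpecialLinearGroup (Fin 2) F} (hg : g ∈ R) : g ^ Nat.card R = 1 :=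
  orderOf_dvd_iff_pow_eq_one.1 (Subgroup.orderOf_dvd_natCard R hg)

theorem main (hp : p ≠ 2) (a : SpecialLinearGroup (Fin 2) F) (ha : IsPGroup p ↥(Subgroup.zpowers a)) (R : Subgroup (SpecialLinearGroup (Fin 2) F))
    (hR : (Nat.card R).Coprime p) (haR : a ∈ Subgroup.normalizer (R : Set (SpecialLinearGroup (Fin 2) F)))
    (hnt : ⁅R, Subgroup.zpowers a⁆ ≠ ⊥) :
    p = 3 ∧ Nonempty (↥R ≃* QuaternionGroup 2) ∧ Nat.card ↥(R ⊔ Subgroup.zpowers a) = 24 ∧
      ¬ ∃ M : Subgroup ↥(R ⊔ Subgroup.zpowers a), M.Normal ∧ M.index = 2 := by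
  classical
  have h2 := two_ne_zero' (F := F) hp
  have ha1 : a ≠ 1 := by
    intro h
    apply hnt
    rw [h, Subgroup.zpowers_one_eq_bot, Subgroup.commutator_bot_right]
  have hap : a ^ p = 1 := by
    obtain ⟨k, hk⟩ := ha ⟨a, Subgroup.mem_zpowers a⟩
    have hk' : a ^ p ^ k = 1 := congrArg Subtype.val hk
    obtain ⟨j, rfl⟩ : ∃ j, k = j + 1 := Nat.exists_eq_succ_of_ne_zero fun h0 => ha1 (by simpa [h0] using hk')
    have h1 : (a.1 - 1) ^ p ^ (j + 1) = 0 := by
      rw [sub_pow_char_pow_of_commute p (j + 1) (Commute.one_right a.1), one_pow]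
      have h3 : a.1 ^ p ^ (j + 1) = 1 := (Matrix.SpecialLinearGroup.coe_pow a _).symm.trans (congrArg Subtype.val hk')
      simp [h3]
    have h2 : (a.1 - 1).det = 0 := by
      have := congrArg Matrix.det h1
      rw [Matrix.det_pow, Matrix.det_zero] at this
      exact eq_zero_of_pow_eq_zero this
    apply pow_char_of_tr_two
    rw [Matrix.det_fin_two] at h2
    simp at h2
    have hd := det_eq a
    rw [tr]
    linear_combination -h2 + hd
  have hord : orderOf a = p := orderOf_eq_prime hap ha1
  have hAc : Nat.card (Subgroup.zpowers a) = p := by rw [Nat.card_zpowers, hord]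
  have hAR : Subgroup.zpowers a ≤ Subgroup.normalizer (R : Set (SpecialLinearGroup (Fin 2) F)) := Subgroup.zpowers_le.2 haR
  have hkey : ∀ g ∈ R, a * g * a⁻¹ * g = g * (a * g * a⁻¹) → g = 1 ∨ g = -1 :=
    fun g hg => eq_of_commute_conj hp hap ha1 (pow_card_eq_one hg) hR
  -- an invariant commutative subgroup is central
  have hab : ∀ S : Subgroup (SpecialLinearGroup (Fin 2) F), S ≤ R → a ∈ Subgroup.normalizer (S : Set (SpecialLinearGroup (Fin 2) F)) → IsMulCommutative S →
      ∀ g ∈ S, g = 1 ∨ g = -1 := fun S hS haS hSc g hg => hkey g (hS hg) (congrArg Subtype.val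
        (Std.Commutative.comm (op := fun (u v : S) => u * v)
          ⟨_, (Subgroup.mem_normalizer_iff.1 haS g).1 hg⟩ ⟨g, hg⟩))
  -- the odd part is trivial
  have hodd : ∀ q : ℕ, q.Prime → q ∣ Nat.card R → q = 2 := by
    intro q hq hqR
    by_contra hq2
    have : Fact q.Prime := ⟨hq⟩
    obtain ⟨Q, hQ⟩ := CfsgLib.CoprimeAction.exists_invariant_sylow hAR
      (hAc ▸ hR.symm) (Or.inl (Group.isSolvable_of_comm fun x y => Std.Commutative.comm x y)) q
    set Q' := (Q : Subgroup R).map R.subtype with hQ'def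
    have haQ : a ∈ Subgroup.normalizer (Q' : Set (SpecialLinearGroup (Fin 2) F)) := hQ (Subgroup.mem_zpowers a)
    have hQp : IsPGroup q Q' := Q.isPGroup'.map _
    have hQcard : q ∣ Nat.card Q' := by
      rw [hQ'def, Subgroup.card_map_of_injective R.subtype_injective]
      exact Q.dvd_card_of_dvd_card hqR
    have : Nontrivial Q' := by
      rw [← Finite.one_lt_card_iff_nontrivial]
      exact lt_of_lt_of_le hq.one_lt (Nat.le_of_dvd Nat.card_pos hQcard)
    have := hQp.center_nontrivial
    obtain ⟨⟨z, hz⟩, hz1⟩ := exists_ne (1 : Subgroup.center Q')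
    have hz1' : (z : SpecialLinearGroup (Fin 2) F) ≠ 1 := fun h => hz1 (Subtype.ext (Subtype.ext h))
    have hznc : (z : SpecialLinearGroup (Fin 2) F) ≠ -1 := by
      intro h
      obtain ⟨k, hk⟩ := IsPGroup.iff_card.1 hQp
      have h1 : (z : SpecialLinearGroup (Fin 2) F) ^ 2 = 1 := by rw [h, neg_one_sq]
      have := Nat.dvd_gcd (orderOf_dvd_of_pow_eq_one h1) (hk ▸ Subgroup.orderOf_dvd_natCard Q' z.2)
      rw [((Nat.coprime_primes Nat.prime_two hq).2 (Ne.symm hq2)).pow_right k, Nat.dvd_one,
        orderOf_eq_one_iff] at this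
      exact hz1' this
    obtain ⟨hgc, -⟩ := not_center_and_tr hp (pow_card_eq_one (R := R) (Subgroup.map_subtype_le _ z.2)) hR hz1' hznc
    have hQc : IsMulCommutative Q' := ⟨⟨fun x y => Subtype.ext (centralizer_comm hgc
      (congrArg Subtype.val (Subgroup.mem_center_iff.1 hz x))
      (congrArg Subtype.val (Subgroup.mem_center_iff.1 hz y)))⟩⟩
    exact (hab Q' (Subgroup.map_subtype_le _) haQ hQc z z.2).elim hz1' hznc
  have hR2 : IsPGroup 2 R := IsPGroup.of_card (Nat.eq_prime_pow_of_unique_prime_dvd Nat.card_pos.ne'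
    fun {d} hd hdR => hodd d hd hdR)
  have : Fact (Nat.Prime 2) := ⟨Nat.prime_two⟩
  have huniq : CfsgLib.RankOneP.UniqueOrderP 2 R := by
    intro x y hx hy hx1
    have hx' := congrArg Subtype.val hx
    have hy' := congrArg Subtype.val hy
    simp only [SubgroupClass.coe_pow, pow_two, OneMemClass.coe_one] at hx' hy'
    rcases eq_one_or_neg_one_of_sq hp hx' with h | h
    · exact absurd (Subtype.ext h) hx1
    rcases eq_one_or_neg_one_of_sq hp hy' with h' | h'
    · have : y = 1 := Subtype.ext h'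
      rw [this]; exact one_mem _
    · have : y = x := Subtype.ext (h'.trans h.symm)
      rw [this]; exact Subgroup.mem_zpowers x
  rcases CfsgLib.RankOneP.isCyclic_or_quaternion hR2 huniq with hcyc | ⟨-, k, hk1, ⟨e⟩⟩
  · exfalso
    apply hnt
    rw [Subgroup.commutator_eq_bot_iff_le_centralizer]
    intro g hg
    rw [Subgroup.zpowers_eq_closure, Subgroup.centralizer_closure, Subgroup.mem_centralizer_singleton_iff]
    rcases hab R le_rfl haR inferInstance g hg with h | h <;> subst h <;> simp
  -- squares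
  have hsq : ∀ x : R, x * x = 1 ∨ ((x * x : R) : SpecialLinearGroup (Fin 2) F) = -1 := by
    have hcomm : ∀ u v : QuaternionGroup (2 ^ k), Commute (u * u) (v * v) := by
      intro u v
      rcases u with i | i <;> rcases v with j | j <;>
        simp [Commute, SemiconjBy, QuaternionGroup.a_mul_a, QuaternionGroup.xa_mul_xa] <;> ring
    intro x
    let y : R := ⟨a * x * a⁻¹, (Subgroup.mem_normalizer_iff.1 haR x).1 x.2⟩
    have h := congrArg (fun w : R => (w : SpecialLinearGroup (Fin 2) F)) ((hcomm (e y) (e x)).map e.symm).eq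
    simp only [map_mul, MulEquiv.symm_apply_apply, Subgroup.coe_mul] at h
    have h' : a * ((x * x : R) : SpecialLinearGroup (Fin 2) F) * a⁻¹ * (x * x : R) = (x * x : R) * (a * ((x * x : R) : SpecialLinearGroup (Fin 2) F) * a⁻¹) := by
      have hy : a * ((x * x : R) : SpecialLinearGroup (Fin 2) F) * a⁻¹ = (y : SpecialLinearGroup (Fin 2) F) * y := by
        show a * ((x : SpecialLinearGroup (Fin 2) F) * x) * a⁻¹ = (a * x * a⁻¹) * (a * x * a⁻¹)
        group
      rw [hy]
      exact h
    rcases hkey _ (x * x).2 h' with h | h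
    · exact Or.inl (Subtype.ext h)
    · exact Or.inr h
  have hk : k = 1 := by
    set g := e.symm (QuaternionGroup.a 1) with hgdef
    have h4 : g ^ 4 = 1 := by
      rw [show 4 = 2 * 2 from rfl, pow_mul, pow_two g]
      rcases hsq g with h | h
      · rw [h, one_pow]
      · apply Subtype.ext
        rw [SubgroupClass.coe_pow, h, neg_one_sq]; rfl
    have hd := orderOf_dvd_of_pow_eq_one h4
    rw [hgdef, MulEquiv.orderOf_eq, QuaternionGroup.orderOf_a_one] at hd
    have h5 : 2 * 2 ^ k ≤ 4 := Nat.le_of_dvd (by norm_num) hd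
    by_contra hne
    have : 2 ^ 2 ≤ 2 ^ k := Nat.pow_le_pow_right two_pos (by omega)
    omega
  subst hk
  replace e : R ≃* QuaternionGroup 2 := e
  have hcard8 : Nat.card R = 8 := by
    rw [Nat.card_congr e.toEquiv, Nat.card_eq_fintype_card, QuaternionGroup.card]
  -- `p = 3`
  have hp3 : p = 3 := by
    let σ : MulAut (QuaternionGroup 2) :=
      MulAut.congr e (Subgroup.normalizerMonoidHom R ⟨a, haR⟩)
    have hσp : σ ^ p = 1 := by
      show (MulAut.congr e (Subgroup.normalizerMonoidHom R ⟨a, haR⟩)) ^ p = 1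
      rw [← map_pow, ← map_pow, show (⟨a, haR⟩ : Subgroup.normalizer (R : Set (SpecialLinearGroup (Fin 2) F))) ^ p = 1 from Subtype.ext hap,
        map_one, map_one]
    have hσ : σ ≠ 1 := by
      intro h
      apply hnt
      rw [Subgroup.commutator_eq_bot_iff_le_centralizer]
      intro g hg
      rw [Subgroup.zpowers_eq_closure, Subgroup.centralizer_closure, Subgroup.mem_centralizer_singleton_iff]
      have h1 : Subgroup.normalizerMonoidHom R ⟨a, haR⟩ = 1 := (MulAut.congr e).injective (h.trans (map_one _).symm)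
      have h' : a * g * a⁻¹ = g := congrArg Subtype.val (DFunLike.congr_fun h1 (⟨g, hg⟩ : R))
      exact (mul_inv_eq_iff_eq_mul.1 h').symm
    have hd : p ∣ Nat.card (MulAut (QuaternionGroup 2)) := orderOf_eq_prime hσp hσ ▸ orderOf_dvd_natCard σ
    rw [Nat.card_congr CfsgLib.Hall.AutQEight.main.some.toEquiv, Nat.card_perm, Nat.card_fin] at hd
    have hd' : p ∣ 24 := hd
    have := Nat.le_of_dvd (by norm_num) hd'
    have := hp'.out
    interval_cases p <;> norm_num at *
  subst hp3
  refine ⟨rfl, ⟨e⟩, ?_, ?_⟩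
  · have hdisj : R ⊓ Subgroup.zpowers a = ⊥ := by
      apply Subgroup.eq_bot_of_card_eq
      refine Nat.eq_one_of_dvd_coprimes hR (Subgroup.card_dvd_of_le inf_le_left) ?_
      exact hAc ▸ Subgroup.card_dvd_of_le (inf_le_right : R ⊓ Subgroup.zpowers a ≤ _)
    set L := R ⊔ Subgroup.zpowers a with hL
    have hn : (R.subgroupOf L).Normal :=
      Subgroup.normal_subgroupOf_of_le_normalizer (sup_le Subgroup.le_normalizer hAR)
    have hcompl : (R.subgroupOf L).IsComplement' ((Subgroup.zpowers a).subgroupOf L) := by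
      apply Subgroup.isComplement'_of_disjoint_and_mul_eq_univ
      · rw [disjoint_iff]
        show R.comap L.subtype ⊓ (Subgroup.zpowers a).comap L.subtype = ⊥
        rw [← Subgroup.comap_inf, hdisj]
        exact Subgroup.bot_subgroupOf L
      · rw [← Subgroup.normal_mul, ← Subgroup.subgroupOf_sup le_sup_left le_sup_right, Subgroup.subgroupOf_self]
        rfl
    have := hcompl.card_mul
    rw [Nat.card_congr (Subgroup.subgroupOfEquivOfLe (le_sup_left : R ≤ L)).toEquiv,
      Nat.card_congr (Subgroup.subgroupOfEquivOfLe (le_sup_right : Subgroup.zpowers a ≤ L)).toEquiv,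
      hcard8, hAc] at this
    omega
  · set L := R ⊔ Subgroup.zpowers a with hL
    rintro ⟨M, hMn, hM⟩
    have hsqM : ∀ x : L, x * x ∈ M := fun x => Subgroup.mul_self_mem_of_index_two hM x
    have haM : (⟨a, Subgroup.mem_sup_right (Subgroup.mem_zpowers a)⟩ : L) ∈ M := by
      have h3 : (⟨a, Subgroup.mem_sup_right (Subgroup.mem_zpowers a)⟩ : L) =
          (⟨a, Subgroup.mem_sup_right (Subgroup.mem_zpowers a)⟩ * ⟨a, Subgroup.mem_sup_right (Subgroup.mem_zpowers a)⟩) *
          (⟨a, Subgroup.mem_sup_right (Subgroup.mem_zpowers a)⟩ * ⟨a, Subgroup.mem_sup_right (Subgroup.mem_zpowers a)⟩) := by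
        apply Subtype.ext
        show a = a * a * (a * a)
        calc a = a ^ 3 * a := by rw [hap, one_mul]
          _ = a * a * (a * a) := by simp only [pow_succ, pow_zero, one_mul, mul_assoc]
      rw [h3]
      exact M.mul_mem (hsqM _) (hsqM _)
    -- `M ∩ R` is invariant of order four
    set S := (M.map L.subtype) ⊓ R with hS
    have haS : a ∈ Subgroup.normalizer (S : Set (SpecialLinearGroup (Fin 2) F)) := by
      refine Subgroup.inf_normalizer_le_normalizer_inf ⟨Subgroup.le_normalizer ?_, haR⟩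
      exact ⟨_, haM, rfl⟩
    have hidx : S.relIndex R ≤ 2 := by
      rw [hS, Subgroup.inf_relIndex_right]
      have h1 := Subgroup.relIndex_dvd_index_of_normal M (R.subgroupOf L)
      have h2 : (M.map L.subtype).relIndex R = M.relIndex (R.subgroupOf L) := by
        rw [← Subgroup.relIndex_map_map_of_injective M (R.subgroupOf L) L.subtype_injective,
          Subgroup.map_subgroupOf_eq_of_le (le_sup_left : R ≤ L)]
      rw [h2]
      exact Nat.le_of_dvd two_pos (h1.trans (dvd_of_eq hM))
    have hS4 : 4 ≤ Nat.card S := by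
      have h := Subgroup.relIndex_mul_relIndex ⊥ S R bot_le inf_le_right
      rw [Subgroup.relIndex_bot_left, Subgroup.relIndex_bot_left, hcard8] at h
      nlinarith
    have hSp : IsPGroup 2 S := hR2.to_le inf_le_right
    obtain ⟨i, hi⟩ := IsPGroup.iff_card.1 hSp
    have hS2 : ∃ g ∈ S, g ≠ 1 ∧ g ≠ -1 := by
      by_contra! hall
      have : Nat.card S ≤ 2 := by
        refine le_trans (Nat.card_le_card_of_injective
          (fun g : S => (⟨(g : SpecialLinearGroup (Fin 2) F), by
            by_cases h : (g : SpecialLinearGroup (Fin 2) F) = 1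
            · exact Finset.mem_insert.2 (Or.inl h)
            · exact Finset.mem_insert.2 (Or.inr (Finset.mem_singleton.2 (hall g g.2 h)))⟩ : ({1, -1} : Finset (SpecialLinearGroup (Fin 2) F))))
          fun u v huv => Subtype.ext (congrArg (fun w : ({1, -1} : Finset (SpecialLinearGroup (Fin 2) F)) => (w : SpecialLinearGroup (Fin 2) F)) huv)) ?_
        rw [Nat.card_eq_fintype_card, Fintype.card_coe]
        exact Finset.card_le_two
      omega
    obtain ⟨g, hg, hg1, hg2⟩ := hS2
    suffices hSc : IsMulCommutative S from (hab S inf_le_right haS hSc g hg).elim hg1 hg2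
    have hle : Nat.card S ≤ 4 := by
      by_contra hgt
      have hSR : S = R := Subgroup.eq_of_le_of_card_ge inf_le_right (by
        rw [hcard8, hi]
        have : 3 ≤ i := by
          by_contra hlt
          have := Nat.pow_le_pow_right two_pos (show i ≤ 2 by omega)
          omega
        exact le_trans (le_of_eq rfl) (Nat.pow_le_pow_right two_pos this))
      have hall : L ≤ M.map L.subtype := sup_le (hSR ▸ inf_le_left)
        (Subgroup.zpowers_le.2 ⟨_, haM, rfl⟩)
      have htop : M = ⊤ := by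
        rw [eq_top_iff]
        intro x _
        obtain ⟨y, hy, hyx⟩ := hall x.2
        exact (Subtype.ext hyx : y = x) ▸ hy
      rw [htop, Subgroup.index_top] at hM
      omega
    exact IsPGroup.isMulCommutative_of_card_eq_prime_sq (p := 2) (by omega)

end CfsgLib.SL2PElement
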